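/-
Brauer's order formula, package LIFT, part B: fusion of involutions and facts on `SL₂(F)`.
-/
import Cfsg.Agent.BO.Two
import Cfsg.Agent.S0215

set_option autoImplicit false
set_option linter.unusedSectionVars false

universe u

namespace CfsgBO

open Subgroup hiding one
open CfsgFT CfsgAG
open CfsgH1 (IsSylowIn)
open scoped Classical

variable {G : Type*} [Group G] [Finite G]

theorem lb_pg {v : G} (vv : v * v = 1) : IsPGroup 2 (zpowers v) :=
  IsPGroup.of_card_dvd_pow (n := 1) (by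
    rw [Nat.card_zpowers]; exact orderOf_dvd_of_pow_eq_one (by rw [pow_one, sq, vv]))

theorem LocN.lb_conjN {D : Dat G} (h : LocN D) (hc : SD D ∨ WR D) {v : G} (hv : v ∈ D.N)
    (v1 : v ≠ 1) (vz : v ≠ D.z) (vv : v * v = 1) : ∃ g ∈ D.N, g * D.u * g⁻¹ = v := by
  obtain ⟨k, hk, e⟩ := h.sylN.exists_cj_le (lb_pg vv) (zpowers_le.2 hv)
  obtain ⟨g, hg, e1⟩ := h.coverS (e (conj_mem_cj k (mem_zpowers _)))
  have hgk := mul_mem hg hk
  rw [show g * (k * v * k⁻¹) * g⁻¹ = g * k * v * (g * k)⁻¹ by group] at e1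
  generalize g * k = t at hgk e1
  have w1 : t * v * t⁻¹ ≠ 1 := by simpa using v1
  have wz : t * v * t⁻¹ ≠ D.z := fun e2 => vz (by
    rw [mul_inv_eq_iff_eq_mul, ← mem_c.1 hgk] at e2; exact mul_left_cancel e2)
  have ww : t * v * t⁻¹ * (t * v * t⁻¹) = 1 := by rw [conj_mul, vv]; simp
  suffices ∃ g ∈ D.N, g * D.u * g⁻¹ = t * v * t⁻¹ by
    obtain ⟨g, hg, e2⟩ := this
    refine ⟨t⁻¹ * g, mul_mem (inv_mem hgk) hg, ?_⟩
    rw [show t⁻¹ * g * D.u * (t⁻¹ * g)⁻¹ = t⁻¹ * (g * D.u * g⁻¹) * t by group, e2]; group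
  generalize t * v * t⁻¹ = w at w1 wz ww e1
  have hz : D.z ∉ zpowers w := fun e2 =>
    wz (eq_of_mem_zpowers (mem_zpowers w) e2 ww w1 h.zz h.z1)
  rcases hc with hc | hc
  · have h1 := e1.resolve_left fun e2 => hz (hc.cyc w e2 w1)
    have h2 := (h.cov₂ w h1).resolve_left fun e2 => (hc.Z2 w e2).elim w1 wz
    rw [hc.ub]
    rcases hc.Z2 _ h2 with e2 | e2
    · exact ⟨1, one_mem _, by simpa using (mul_inv_eq_one.1 e2).symm⟩
    · refine ⟨D.x⁻¹, inv_mem h.xN, ?_⟩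
      rw [inv_inv, h.xconj h.bA₂ fun e3 => h.bA₁ (h.ZA₁ e3), mem_c.1 h.bN, ← e2]; group
  · have h1 := e1.resolve_right fun e2 => hz (hc.cyc w e2 w1)
    rcases hc.inv3 w h1 ww with e2 | e2 | e2 | e2
    · exact absurd e2 w1
    · exact absurd e2 wz
    · exact ⟨1, one_mem _, by simpa using e2.symm⟩
    · exact ⟨D.b⁻¹, inv_mem h.bN, by rw [inv_inv, hc.bu, e2]⟩

theorem LocN.toLoc [IsSimpleGroup G] (hG : ¬ IsMulCommutative G) {D : Dat G} (h : LocN D)
    (hS : IsSylowIn 2 D.S ⊤) (hc : SD D ∨ WR D) : Loc D := by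
  have oz : orderOf D.z = 2 := orderOf_eq_prime (by rw [sq, h.zz]) h.z1
  have h1 : ∃ g : G, g * D.z * g⁻¹ = D.u := by
    by_contra hn
    obtain ⟨N, hN, ho, hz⟩ := Cfsg.Agent.S0215.result hS.sylow D.z oz (h.ZS h.zZ) fun g hg => by
      by_contra e
      obtain ⟨k, -, e1⟩ := h.lb_conjN hc (h.SN hg) (by simpa using h.z1) e
        (by rw [conj_mul, h.zz]; simp)
      exact hn ⟨k⁻¹ * g, by
        rw [show k⁻¹ * g * D.z * (k⁻¹ * g)⁻¹ = k⁻¹ * (g * D.z * g⁻¹) * k by group, ← e1]; group⟩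
    rcases hN.eq_bot_or_eq_top with rfl | rfl
    · have h2 : D.z ∈ center G := mem_center_iff.2 fun g => by
        have := mem_bot.1 (hz g)
        rw [mul_inv_eq_one, mul_inv_eq_iff_eq_mul] at this
        exact this.symm
      rcases (inferInstance : (center G).Normal).eq_bot_or_eq_top with e | e
      · exact h.z1 (by rwa [e, mem_bot] at h2)
      · exact hG ⟨⟨fun a b => (mem_center_iff.1 (e ▸ mem_top b : b ∈ center G) a)⟩⟩
    · rw [card_top] at ho
      exact absurd (oz ▸ Odd.of_dvd_nat ho (orderOf_dvd_natCard D.z)) (by decide)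
  refine ⟨h, hS, fun v v1 vv => ?_, fun v hv v1 vz vv => h.lb_conjN hc hv v1 vz vv⟩
  obtain ⟨k, -, e⟩ := hS.exists_cj_le (lb_pg vv) le_top
  have h2 := e (conj_mem_cj k (mem_zpowers v))
  suffices ∃ g : G, g * D.z * g⁻¹ = k * v * k⁻¹ by
    obtain ⟨g, e2⟩ := this
    refine ⟨k⁻¹ * g, ?_⟩
    rw [show k⁻¹ * g * D.z * (k⁻¹ * g)⁻¹ = k⁻¹ * (g * D.z * g⁻¹) * k by group, e2]; group
  by_cases e1 : k * v * k⁻¹ = D.z
  · exact ⟨1, by simpa using e1.symm⟩
  obtain ⟨t, -, e2⟩ := h.lb_conjN hc (h.SN h2) (by simpa using v1) e1 (by rw [conj_mul, vv]; simp)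
  obtain ⟨g, e3⟩ := h1
  exact ⟨t * g, by rw [← e2, ← e3]; group⟩

theorem Loc.card_cent {D : Dat G} (h : Loc D) {U : Subgroup G} (hU : U ≤ D.S) (h4 : IsKleinFour U)
    (hz : D.z ∈ U) : #(𝒞 U) = #(D.N ⊓ 𝒞₁ D.u) := by
  obtain ⟨v, hv, v1, vz⟩ := CfsgH4.kleinFour_exists h4 hz
  have vv : v * v = 1 := by simpa using congrArg Subtype.val (IsKleinFour.mul_self (⟨v, hv⟩ : U))
  have h1 : 𝒞 U = D.N ⊓ 𝒞₁ v := by
    ext g
    rw [mem_inf, mem_c, mem_c, mem_centralizer_iff]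
    refine ⟨fun e => ⟨(e _ hz).symm, (e _ hv).symm⟩, fun e t ht => ?_⟩
    by_cases t1 : t = 1
    · simp [t1]
    by_cases tz : t = D.z
    · exact tz ▸ e.1.symm
    by_cases tv : t = v
    · exact tv ▸ e.2.symm
    have := IsKleinFour.eq_mul_of_ne_all (G := U) (x := ⟨D.z, hz⟩) (y := ⟨v, hv⟩) (z := ⟨t, ht⟩)
      (by simpa using h.z1) (by simpa using v1) (by simpa using vz.symm) (by simpa using t1)
      (by simpa using tz) (by simpa using tv)
    rw [show t = D.z * v from congrArg Subtype.val this, mul_assoc, ← e.2, ← mul_assoc, ← e.1,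
      mul_assoc]
  obtain ⟨g, hg, rfl⟩ := h.conjN v (h.SN (hU hv)) v1 vz vv
  rw [h1, ← card_cj g (D.N ⊓ 𝒞₁ D.u)]
  congr 2
  ext t
  rw [mem_cj, mem_inf, mem_inf, mem_c (a := D.u), mem_c (a := g * D.u * g⁻¹),
    mul_mem_cancel_right hg, mul_mem_cancel_left (inv_mem hg)]
  refine and_congr_right fun _ => ⟨fun e => ?_, fun e => ?_⟩
  · calc _ = g⁻¹ * (t * (g * D.u * g⁻¹)) * g := by group
      _ = _ := by rw [e]; group
  · calc _ = g * (g⁻¹ * t * g * D.u) * g⁻¹ := by group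
      _ = _ := by rw [e]; group

section SL

variable {F : Type*} [Field F] [Fintype F]

theorem lb_two (hF : Odd (Fintype.card F)) : (2 : F) ≠ 0 := fun e => by
  have := FiniteField.even_card_of_char_two (F := F) ((ringChar.eq_iff).2 (by
    exact (CharP.charP_iff_prime_eq_zero Nat.prime_two).2 (by exact_mod_cast e)))
  rw [Nat.odd_iff] at hF
  omega

theorem lb_sl_inv (hF : Odd (Fintype.card F)) (v : Matrix.SpecialLinearGroup (Fin 2) F)
    (vv : v * v = 1) : v = 1 ∨ v = -1 := by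
  have h2 := lb_two hF
  have hd := v.det_coe
  rw [Matrix.det_fin_two] at hd
  have e := fun i j => congrFun (congrFun (congrArg Subtype.val vv) i) j
  have e00 := e 0 0
  have e01 := e 0 1
  have e10 := e 1 0
  simp [Matrix.mul_apply, Fin.sum_univ_two] at e00 e01 e10
  have ht : v.1 0 0 + v.1 1 1 ≠ 0 := fun e1 => h2 (by linear_combination hd - e00 + (v.1 0 0) * e1 - 2 * hd)
  have hb : v.1 0 1 = 0 := (mul_eq_zero.1 (by linear_combination e01)).resolve_left ht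
  have hc : v.1 1 0 = 0 := (mul_eq_zero.1 (by linear_combination e10)).resolve_left ht
  rw [hb] at e00 hd
  have h3 : (v.1 0 0 - 1) * (v.1 0 0 + 1) = 0 := by linear_combination e00
  rcases mul_eq_zero.1 h3 with e1 | e1
  · left
    have h4 : v.1 0 0 = 1 := by linear_combination e1
    have h5 : v.1 1 1 = 1 := by linear_combination hd - v.1 1 1 * h4
    ext i j; fin_cases i <;> fin_cases j <;> simp [h4, h5, hb, hc]
  · right
    have h4 : v.1 0 0 = -1 := by linear_combination e1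
    have h5 : v.1 1 1 = -1 := by linear_combination -hd + v.1 1 1 * h4
    ext i j; fin_cases i <;> fin_cases j <;> simp [h4, h5, hb, hc]

theorem lb_sl_ne (hF : Odd (Fintype.card F)) : (-1 : Matrix.SpecialLinearGroup (Fin 2) F) ≠ 1 :=
  fun e => lb_two hF (by
    have := congrFun (congrFun (congrArg Subtype.val e) 0) 0
    simp at this
    linear_combination -this)

theorem sl2_inv {L : Subgroup G} (hF : Odd (Fintype.card F))
    (e : L ≃* Matrix.SpecialLinearGroup (Fin 2) F) :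
    ∃ m ∈ L, m ≠ 1 ∧ m * m = 1 ∧ ∀ v ∈ L, v * v = 1 → v = 1 ∨ v = m := by
  refine ⟨e.symm (-1), (e.symm (-1)).2, by simpa using lb_sl_ne hF,
    by rw [← coe_mul, ← map_mul]; simp, fun v hv vv => ?_⟩
  rcases lb_sl_inv hF (e ⟨v, hv⟩) (by
    rw [← map_mul, map_eq_one_iff _ e.injective]; exact Subtype.ext vv) with e1 | e1
  · exact Or.inl (congrArg Subtype.val ((map_eq_one_iff _ e.injective).1 e1))
  · exact Or.inr (by rw [← e1]; simp)

theorem lb_sl_q (hF : Odd (Fintype.card F)) : ∃ i j : Matrix.SpecialLinearGroup (Fin 2) F,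
    i * i = -1 ∧ j * j = -1 ∧ i * j = -(j * i) := by
  obtain ⟨p, hp⟩ := CharP.exists F
  have : Fact p.Prime := ⟨CharP.char_is_prime F p⟩
  obtain ⟨a, b, hab⟩ := CharP.sq_add_sq F p (-1)
  push_cast at hab
  have h1 : (!![0, -1; 1, 0] : Matrix (Fin 2) (Fin 2) F) * !![0, -1; 1, 0] = -1 := by
    ext i j; fin_cases i <;> fin_cases j <;> simp
  have h2 : (!![a, b; b, -a] : Matrix (Fin 2) (Fin 2) F) * !![(a : F), b; b, -a] = -1 := by
    ext i j; fin_cases i <;> fin_cases j <;> simp <;> first | ring1 | linear_combination hab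
  have h3 : (!![0, -1; 1, 0] : Matrix (Fin 2) (Fin 2) F) * !![(a : F), b; b, -a] =
      -(!![(a : F), b; b, -a] * !![0, -1; 1, 0]) := by
    ext i j; fin_cases i <;> fin_cases j <;> simp
  exact ⟨⟨!![0, -1; 1, 0], by simp [Matrix.det_fin_two]⟩,
    ⟨!![a, b; b, -a], by rw [Matrix.det_fin_two]; simp; linear_combination -hab⟩,
    Subtype.ext h1, Subtype.ext h2, Subtype.ext h3⟩

theorem sl2_syl {L T : Subgroup G} (hF : Odd (Fintype.card F))
    (e : L ≃* Matrix.SpecialLinearGroup (Fin 2) F) (hT : IsSylowIn 2 T L) :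
    ∃ a ∈ T, ∃ a' ∈ T, a * a' ≠ a' * a := by
  obtain ⟨i, j, ii, jj, ij⟩ := lb_sl_q hF
  have p4 : ∀ i : Matrix.SpecialLinearGroup (Fin 2) F, i * i = -1 → IsPGroup 2 (zpowers i) :=
    fun i ii => IsPGroup.of_card_dvd_pow (n := 2) (by
      rw [Nat.card_zpowers]
      exact orderOf_dvd_of_pow_eq_one (by rw [show 2 ^ 2 = 2 * 2 by rfl, pow_mul, sq i, ii]; simp))
  have h1 : i * j * i⁻¹ = j⁻¹ := by
    rw [ij, neg_mul, mul_inv_cancel_right, eq_inv_iff_mul_eq_one, neg_mul, jj, neg_neg]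
  have hn : zpowers i ≤ 𝒩 (zpowers j) := zpowers_le.2 (mem_normalizer_fintype (by
    rintro _ ⟨k, rfl⟩
    exact ⟨-k, by simp only; rw [← conj_zpow, h1, inv_zpow']⟩))
  have hP := (IsPGroup.to_sup_of_normal_right' (p4 i ii) (p4 j jj) hn).map
    (L.subtype.comp e.symm.toMonoidHom)
  obtain ⟨g, -, hg⟩ := hT.exists_cj_le hP (by rintro _ ⟨t, -, rfl⟩; exact (e.symm t).2)
  refine ⟨_, hg (conj_mem_cj g (mem_map_of_mem _ (mem_sup_left (mem_zpowers i)))),
    _, hg (conj_mem_cj g (mem_map_of_mem _ (mem_sup_right (mem_zpowers j)))), fun e1 => ?_⟩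
  rw [conj_mul, conj_mul, ← map_mul, ← map_mul, mul_left_inj, mul_right_inj] at e1
  have e2 : i * j = j * i := e.symm.injective (Subtype.ext e1)
  rw [e2, ← neg_one_mul, eq_comm, mul_eq_right] at ij
  exact lb_sl_ne hF ij

end SL

end CfsgBO
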